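import Cfsg.Agent.Rec.Gen
import Cfsg.Agent.Schur.Lift

/-! Uniqueness of the double cover of a perfect group with Schur multiplier of order two. -/

set_option autoImplicit false

namespace Cfsg.Agent.Rec

open Cfsg.Agent.BG Cfsg.Agent.Schur

variable {X Y S : Type*} [Group X] [Group Y] [Group S]

theorem card_eq_ker (σ : X →* S) : Nat.card X = Nat.card σ.range * Nat.card σ.ker := by
  rw [← Subgroup.index_ker, Subgroup.index_mul_card]

theorem iso_of_stem [Finite X] [Finite Y] (hS : HasCyclicSchurMultiplier S 2) (hp : Group.IsPerfect S) {σ : X →* S} {τ : Y →* S}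
    (hσ : IsStemExtension σ) (hτ : IsStemExtension τ) (h1 : Nat.card σ.ker = 2) (h2 : Nat.card τ.ker = 2) : Nonempty (X ≃* Y) := by
  have := finite_base_of_hasSchurMultiplier hS
  have s2 := (isCentralExt_pullSnd (isCentralExt_of_stem hσ) τ).surj
  have s1 : Function.Surjective (pullFst σ τ) := fun x => let ⟨y, hy⟩ := hτ.1 (σ x); ⟨⟨(x, y), hy.symm⟩, rfl⟩
  have hξ : IsCentralExt (τ.comp (pullSnd σ τ)) := ⟨hτ.1.comp s2, fun x hx => Subgroup.mem_center_iff.2 fun y => Subtype.ext
    (Prod.ext (Subgroup.mem_center_iff.1 (hσ.2.1 (x.2.trans hx)) _) (Subgroup.mem_center_iff.1 (hτ.2.1 hx) _))⟩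
  obtain ⟨f, hf⟩ := exists_surj_mul hS hξ
  have h3 : Nat.card (commutator (pullback σ τ)) ≤ Nat.card S * 2 := by
    rw [card_eq_ker ((τ.comp (pullSnd σ τ)).comp (Subgroup.subtype _))]
    refine Nat.mul_le_mul (Subgroup.card_le_card_group _) (le_trans ?_ ((Nat.card_le_card_of_surjective f hf).trans (by simp)))
    exact Nat.card_le_card_of_injective (fun x => ⟨x.1.1, x.2, x.1.2⟩) fun x y e => Subtype.ext (Subtype.ext (Subtype.mk.inj e))
  have b1 := nonempty_mulEquiv_of_surj_of_card_le _ (sj' ((map_commutator_of_surjective s1).trans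
    (isPerfect_of_stem hp hσ).commutator_eq_top)) (by rwa [card_eq_ker σ, h1, MonoidHom.range_eq_top.2 hσ.1, Subgroup.card_top])
  have b2 := nonempty_mulEquiv_of_surj_of_card_le _ (sj' ((map_commutator_of_surjective s2).trans
    (isPerfect_of_stem hp hτ).commutator_eq_top)) (by rwa [card_eq_ker τ, h2, MonoidHom.range_eq_top.2 hτ.1, Subgroup.card_top])
  exact ⟨(MulEquiv.ofBijective _ b1).symm.trans (MulEquiv.ofBijective _ b2)⟩

theorem stem_of_cover [Finite X] (h : IsNonsplitDoubleCover X S) (hp : Group.IsPerfect S) :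
    ∃ σ : X →* S, IsStemExtension σ ∧ Nat.card σ.ker = 2 := by
  obtain ⟨h1, ⟨e⟩, h2⟩ := h
  let σ : X →* S := e.toMonoidHom.comp (QuotientGroup.mk' _)
  have hk : σ.ker = Subgroup.center X := by ext g; simp [σ]
  have hs : Function.Surjective σ := e.surjective.comp (QuotientGroup.mk'_surjective _)
  refine ⟨σ, ⟨hs, hk.le, ?_⟩, hk ▸ h1⟩
  by_contra hn
  have : Fact (Nat.card σ.ker).Prime := ⟨by rw [hk, h1]; decide⟩
  have h3 : σ.ker ⊓ commutator X = ⊥ := by
    rcases ((commutator X).subgroupOf σ.ker).eq_bot_or_eq_top_of_prime_card with e | e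
    exacts [by rw [inf_comm]; exact disjoint_iff.1 (Subgroup.subgroupOf_eq_bot.1 e), absurd (Subgroup.subgroupOf_eq_top.1 e) hn]
  refine h2 (commutator X) (hk ▸ Subgroup.isComplement'_of_disjoint_and_mul_eq_univ (disjoint_iff.2 h3) ?_)
  rw [← Subgroup.normal_mul, sup_comm, ← Subgroup.comap_map_eq, map_commutator_of_surjective hs, hp.commutator_eq_top]
  rfl

end Cfsg.Agent.Rec
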